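import Mathlib
import Cfsg.Prelude.Def_Classical
import Cfsg.Agent.Lib.Quad.Gram
import Cfsg.Agent.Lib.Quad.Split
import Cfsg.Agent.Lib.Quad.Similar

/-! The sign (Arf) invariant over the field of two elements, by exponential sums. -/

set_option autoImplicit false

namespace Cfsg.Agent.Lib.Arf

open Cfsg.Agent.Lib.Quad

/-- The non-trivial character of `ZMod 2`. -/
def chi (a : ZMod 2) : ℤ := if a = 0 then 1 else -1

@[simp] theorem chi_zero : chi 0 = 1 := rfl
@[simp] theorem chi_one : chi 1 = -1 := rfl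
theorem chi_add (a b : ZMod 2) : chi (a + b) = chi a * chi b := by revert a b; decide
theorem chi_mul_self (a : ZMod 2) : chi a * chi a = 1 := by revert a; decide
theorem chi_ne_zero (a : ZMod 2) : chi a ≠ 0 := by revert a; decide
theorem chi_eq_one_iff (a : ZMod 2) : chi a = 1 ↔ a = 0 := by revert a; decide

theorem chi_sum {ι : Type*} (s : Finset ι) (f : ι → ZMod 2) : chi (∑ i ∈ s, f i) = ∏ i ∈ s, chi (f i) := by
  classical
  induction s using Finset.induction_on with
  | empty => simp
  | insert a s ha ih => rw [Finset.sum_insert ha, Finset.prod_insert ha, chi_add, ih]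

section Gen

variable {V W : Type*} [AddCommGroup V] [Fintype V]

/-- The exponential sum of a function. -/
def gaussSum (q : V → ZMod 2) : ℤ := ∑ v, chi (q v)

omit [AddCommGroup V] in
theorem gaussSum_def (q : V → ZMod 2) : gaussSum q = ∑ v, chi (q v) := rfl

theorem gaussSum_equiv [Fintype W] (e : V ≃ W) (q : W → ZMod 2) : gaussSum (fun v => q (e v)) = gaussSum q := by
  simpa [gaussSum] using Equiv.sum_comp e (fun w => chi (q w))

theorem gaussSum_eq_zero_of_add (l : V → ZMod 2) (hl : ∀ u v, l (u + v) = l u + l v) (u₀ : V) (h : l u₀ = 1) :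
    gaussSum l = 0 := by
  have h1 : gaussSum l = ∑ v, chi (l (v + u₀)) := (Equiv.sum_comp (Equiv.addRight u₀) (fun v => chi (l v))).symm
  have h2 : ∑ v, chi (l (v + u₀)) = - gaussSum l := by
    rw [gaussSum, ← Finset.sum_neg_distrib]
    refine Finset.sum_congr rfl fun v _ => ?_
    rw [hl, h, chi_add]; simp
  omega

theorem gaussSum_translate (q : V → ZMod 2) (f : V → V → ZMod 2) (h : ∀ u v, q (u + v) = q u + q v + f u v) (w : V) :
    gaussSum q = chi (q w) * gaussSum (fun v => q v + f v w) := by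
  have h1 : gaussSum q = ∑ v, chi (q (v + w)) := (Equiv.sum_comp (Equiv.addRight w) (fun v => chi (q v))).symm
  rw [h1, gaussSum, Finset.mul_sum]
  refine Finset.sum_congr rfl fun v _ => ?_
  rw [h, add_comm (q v) (q w), add_assoc, chi_add]

theorem gaussSum_sq [DecidableEq V] (q : V → ZMod 2) (f : V → V → ZMod 2) (h : ∀ u v, q (u + v) = q u + q v + f u v)
    (hf : ∀ u v w, f (u + v) w = f u w + f v w) (hnd : ∀ w, w ≠ 0 → ∃ u, f u w = 1) :
    gaussSum q ^ 2 = Fintype.card V := by
  have hq0 : q 0 = 0 := by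
    have h1 := h 0 0
    have h2 := hf 0 0 0
    simp only [add_zero] at h1 h2
    have h3 : f 0 0 = 0 := by linear_combination -h2
    rw [h3, add_zero] at h1
    linear_combination -h1
  have hf0 : ∀ v, f v 0 = 0 := by
    intro v
    have h1 := h v 0
    rw [add_zero, hq0, add_zero] at h1
    linear_combination -h1
  have h1 : gaussSum q ^ 2 = ∑ w, ∑ v, chi (q (v + w)) * chi (q v) := by
    rw [sq, gaussSum, Finset.sum_mul_sum, Finset.sum_comm (f := fun w v => chi (q (v + w)) * chi (q v)), Finset.sum_comm]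
    refine Finset.sum_congr rfl fun j _ => ?_
    exact (Equiv.sum_comp (Equiv.addLeft j) (fun i => chi (q i) * chi (q j))).symm
  have h2 : ∀ w, ∑ v, chi (q (v + w)) * chi (q v) = chi (q w) * gaussSum (fun v => f v w) := by
    intro w
    rw [gaussSum, Finset.mul_sum]
    refine Finset.sum_congr rfl fun v _ => ?_
    rw [h, add_comm (q v) (q w), add_assoc, chi_add, chi_add]
    linear_combination (chi (q w) * chi (f v w)) * chi_mul_self (q v)
  rw [h1, Finset.sum_congr rfl (fun w _ => h2 w), Finset.sum_eq_single 0]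
  · rw [hq0, chi_zero, one_mul, gaussSum]
    simp [hf0]
  · intro w _ hw
    obtain ⟨u, hu⟩ := hnd w hw
    rw [gaussSum_eq_zero_of_add (fun v => f v w) (fun a b => hf a b w) u hu, mul_zero]
  · simp

theorem gaussSum_ne_zero [DecidableEq V] (q : V → ZMod 2) (f : V → V → ZMod 2) (h : ∀ u v, q (u + v) = q u + q v + f u v)
    (hf : ∀ u v w, f (u + v) w = f u w + f v w) (hnd : ∀ w, w ≠ 0 → ∃ u, f u w = 1) :
    gaussSum q ≠ 0 := by
  intro h0
  have h1 := gaussSum_sq q f h hf hnd
  rw [h0] at h1
  have : (Fintype.card V : ℤ) ≠ 0 := by exact_mod_cast Fintype.card_ne_zero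
  apply this
  rw [← h1]; norm_num

/-- The alternating sum over a function is the difference of the two fibre sizes. -/
theorem gaussSum_eq_card_sub (q : V → ZMod 2) :
    gaussSum q = (Nat.card {v // q v = 0} : ℤ) - Nat.card {v // q v = 1} := by
  classical
  have h0 : ∀ a : ZMod 2, chi a = (if a = 0 then 1 else 0) - (if a = 1 then 1 else 0) := by decide
  rw [gaussSum, Finset.sum_congr rfl (fun v _ => h0 (q v)), Finset.sum_sub_distrib,
    Finset.sum_boole, Finset.sum_boole, Nat.card_eq_fintype_card, Nat.card_eq_fintype_card,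
    Fintype.card_subtype, Fintype.card_subtype]

theorem card_add_card (q : V → ZMod 2) :
    Nat.card {v // q v = 0} + Nat.card {v // q v = 1} = Fintype.card V := by
  classical
  rw [Nat.card_eq_fintype_card, Nat.card_eq_fintype_card, Fintype.card_subtype, Fintype.card_subtype,
    ← Finset.card_union_of_disjoint]
  · rw [← Finset.card_univ]
    congr 1
    ext v
    simp only [Finset.mem_union, Finset.mem_filter, Finset.mem_univ, true_and, iff_true]
    generalize q v = a
    revert a; decide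
  · rw [Finset.disjoint_filter]
    intro v _ h1 h2
    rw [h1] at h2
    exact zero_ne_one h2

end Gen

section Std

abbrev Vp (m : ℕ) : Type := Fin m ⊕ Fin m → ZMod 2
abbrev Vm (k : ℕ) : Type := (Fin k ⊕ Fin k) ⊕ Fin 2 → ZMod 2

/-- The polarization of the plus-type form. -/
def pf (m : ℕ) (u v : Vp m) : ZMod 2 :=
  Cfsg.quadFormPlus m (ZMod 2) (u + v) - Cfsg.quadFormPlus m (ZMod 2) u - Cfsg.quadFormPlus m (ZMod 2) v

theorem pf_eq (m : ℕ) (u v : Vp m) : pf m u v = ∑ i, (u (.inl i) * v (.inr i) + v (.inl i) * u (.inr i)) := by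
  simp only [pf, Cfsg.quadFormPlus, Pi.add_apply, ← Finset.sum_sub_distrib]
  refine Finset.sum_congr rfl fun i _ => ?_
  ring

theorem pf_add_left (m : ℕ) (u v w : Vp m) : pf m (u + v) w = pf m u w + pf m v w := by
  simp only [pf_eq, Pi.add_apply, ← Finset.sum_add_distrib]
  refine Finset.sum_congr rfl fun i _ => ?_
  ring

theorem pf_comm (m : ℕ) (u v : Vp m) : pf m u v = pf m v u := by
  simp only [pf_eq]
  refine Finset.sum_congr rfl fun i _ => ?_
  ring

theorem pf_add_right (m : ℕ) (u v w : Vp m) : pf m u (v + w) = pf m u v + pf m u w := by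
  rw [pf_comm, pf_add_left, pf_comm m v, pf_comm m w]

theorem pf_self (m : ℕ) (u : Vp m) : pf m u u = 0 := by
  rw [pf_eq]
  refine Finset.sum_eq_zero fun i _ => ?_
  have h2 : (2 : ZMod 2) = 0 := rfl
  linear_combination (u (.inl i) * u (.inr i)) * h2

theorem pf_smul_left (m : ℕ) (a : ZMod 2) (u v : Vp m) : pf m (a • u) v = a * pf m u v := by
  simp only [pf_eq, Finset.mul_sum, Pi.smul_apply, smul_eq_mul]
  refine Finset.sum_congr rfl fun i _ => ?_
  ring

theorem pf_smul_right (m : ℕ) (a : ZMod 2) (u v : Vp m) : pf m u (a • v) = a * pf m u v := by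
  rw [pf_comm, pf_smul_left, pf_comm]

theorem pf_nondeg (m : ℕ) (w : Vp m) (hw : w ≠ 0) : ∃ u, pf m u w = 1 := by
  classical
  have h2 : ∀ a : ZMod 2, a ≠ 0 → a = 1 := by decide
  obtain ⟨k, hk⟩ := Function.ne_iff.1 hw
  rcases k with i | i
  · refine ⟨Pi.single (.inr i) 1, ?_⟩
    rw [pf_eq, Finset.sum_eq_single i]
    · simp; exact h2 _ hk
    · intro j _ hj
      simp [hj]
    · simp
  · refine ⟨Pi.single (.inl i) 1, ?_⟩
    rw [pf_eq, Finset.sum_eq_single i]
    · simp; exact h2 _ hk
    · intro j _ hj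
      simp [hj]
    · simp

/-- The bilinear version of the polarization. -/
def pfBilin (m : ℕ) : LinearMap.BilinForm (ZMod 2) (Vp m) :=
  LinearMap.mk₂ (ZMod 2) (pf m) (pf_add_left m) (fun a u v => by rw [pf_smul_left]; rfl) (pf_add_right m)
    (fun a u v => by rw [pf_smul_right]; rfl)

@[simp] theorem pfBilin_apply (m : ℕ) (u v : Vp m) : pfBilin m u v = pf m u v := rfl

/-- A function on a space over the field of two elements with bilinear polarization is a quadratic form. -/
def mkQF {V : Type*} [AddCommGroup V] [Module (ZMod 2) V] (q : V → ZMod 2) (B : LinearMap.BilinForm (ZMod 2) V)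
    (h : ∀ u v, q (u + v) = q u + q v + B u v) : QuadraticForm (ZMod 2) V where
  toFun := q
  toFun_smul a x := by
    have h0 : q 0 = 0 := by
      have := h 0 0
      simp only [add_zero, map_zero] at this
      linear_combination -this
    have ha : a = 0 ∨ a = 1 := by revert a; decide
    rcases ha with rfl | rfl
    · simp [h0]
    · simp
  exists_companion' := ⟨B, h⟩

@[simp] theorem mkQF_apply {V : Type*} [AddCommGroup V] [Module (ZMod 2) V] (q : V → ZMod 2)
    (B : LinearMap.BilinForm (ZMod 2) V) (h : ∀ u v, q (u + v) = q u + q v + B u v) (v : V) : mkQF q B h v = q v := rfl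

theorem gaussSum_plus (m : ℕ) : gaussSum (Cfsg.quadFormPlus m (ZMod 2)) = 2 ^ m := by
  classical
  let e : Vp m ≃ (Fin m → ZMod 2 × ZMod 2) :=
    { toFun := fun v i => (v (.inl i), v (.inr i))
      invFun := fun p => Sum.elim (fun i => (p i).1) (fun i => (p i).2)
      left_inv := fun v => by ext i; cases i <;> rfl
      right_inv := fun p => by ext i <;> rfl }
  have h1 : gaussSum (Cfsg.quadFormPlus m (ZMod 2)) = ∑ p : Fin m → ZMod 2 × ZMod 2, ∏ i, chi ((p i).1 * (p i).2) := by
    rw [gaussSum, ← Equiv.sum_comp e.symm]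
    refine Finset.sum_congr rfl fun p _ => ?_
    rw [← chi_sum]
    rfl
  rw [h1]
  have h2 := (Finset.prod_univ_sum (t := fun _ : Fin m => (Finset.univ : Finset (ZMod 2 × ZMod 2)))
    (f := fun _ c => chi (c.1 * c.2)))
  rw [Fintype.piFinset_univ] at h2
  rw [← h2]
  have h3 : ∑ c : ZMod 2 × ZMod 2, chi (c.1 * c.2) = 2 := by decide
  simp [h3]

theorem gaussSum_minus (k : ℕ) : gaussSum (Cfsg.quadFormMinus k (ZMod 2) 1 1) = - 2 ^ (k + 1) := by
  classical
  have h1 : gaussSum (Cfsg.quadFormMinus k (ZMod 2) 1 1) =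
      ∑ p : (Vp k) × (Fin 2 → ZMod 2), chi (Cfsg.quadFormPlus k (ZMod 2) p.1) *
        chi (p.2 0 ^ 2 + 1 * p.2 0 * p.2 1 + 1 * p.2 1 ^ 2) := by
    rw [gaussSum, ← Equiv.sum_comp (Equiv.sumArrowEquivProdArrow (Fin k ⊕ Fin k) (Fin 2) (ZMod 2)).symm]
    refine Finset.sum_congr rfl fun p _ => ?_
    rw [← chi_add]
    rfl
  rw [h1, Fintype.sum_prod_type]
  have h2 : ∑ z : Fin 2 → ZMod 2, chi (z 0 ^ 2 + 1 * z 0 * z 1 + 1 * z 1 ^ 2) = -2 := by decide
  simp only [← Finset.mul_sum, h2]
  rw [← Finset.sum_mul]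
  have h3 := gaussSum_plus k
  rw [gaussSum] at h3
  rw [h3]
  ring

end Std

end Cfsg.Agent.Lib.Arf
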