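import Mathlib
import Cfsg.Agent.Lib.Arf.Basic

/-! Every non-degenerate quadratic form of even dimension over the field of two elements is of plus or minus type. -/

set_option autoImplicit false

namespace Cfsg.Agent.Lib.Arf

open Cfsg.Agent.Lib.Quad Module

/-- The polar form of the elliptic form. -/
noncomputable def minusBilin (k : ℕ) : LinearMap.BilinForm (ZMod 2) (Vm k) := Matrix.toBilin' (minusGram k 1 1)

theorem quadMinus_add (k : ℕ) (u v : Vm k) :
    Cfsg.quadFormMinus k (ZMod 2) 1 1 (u + v) =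
      Cfsg.quadFormMinus k (ZMod 2) 1 1 u + Cfsg.quadFormMinus k (ZMod 2) 1 1 v + minusBilin k u v := by
  have := polar_minus k (1 : ZMod 2) 1 u v
  rw [minusBilin, Matrix.toBilin'_apply', ← this, QuadraticMap.polar]
  ring

/-- The elliptic form as a quadratic form. -/
noncomputable def minusQF (k : ℕ) : QuadraticForm (ZMod 2) (Vm k) :=
  mkQF _ (minusBilin k) (quadMinus_add k)

@[simp] theorem minusQF_apply (k : ℕ) (v : Vm k) : minusQF k v = Cfsg.quadFormMinus k (ZMod 2) 1 1 v := rfl

/-- Explicit polar form of the elliptic form. -/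
theorem polar_minus_eq (k : ℕ) (u v : Vm k) :
    QuadraticMap.polar (Cfsg.quadFormMinus k (ZMod 2) 1 1) u v =
      (∑ i, (u (.inl (.inl i)) * v (.inl (.inr i)) + v (.inl (.inl i)) * u (.inl (.inr i)))) +
        (u (.inr 0) * v (.inr 1) + u (.inr 1) * v (.inr 0)) := by
  have h2 : (2 : ZMod 2) = 0 := rfl
  simp only [QuadraticMap.polar, Cfsg.quadFormMinus, Pi.add_apply]
  have : ∑ i, (u (.inl (.inl i)) * v (.inl (.inr i)) + v (.inl (.inl i)) * u (.inl (.inr i))) =
      (∑ i : Fin k, (u (.inl (.inl i)) + v (.inl (.inl i))) * (u (.inl (.inr i)) + v (.inl (.inr i)))) -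
      (∑ i, u (.inl (.inl i)) * u (.inl (.inr i))) - (∑ i, v (.inl (.inl i)) * v (.inl (.inr i))) := by
    rw [← Finset.sum_sub_distrib, ← Finset.sum_sub_distrib]
    refine Finset.sum_congr rfl fun i _ => ?_
    ring
  rw [this]
  linear_combination (u (.inr 0) * v (.inr 0) + u (.inr 1) * v (.inr 1)) * h2

theorem polar_plus_eq (m : ℕ) (u v : Vp m) :
    QuadraticMap.polar (Cfsg.quadFormPlus m (ZMod 2)) u v = pf m u v := rfl

section

variable {V : Type*} [AddCommGroup V] [Module (ZMod 2) V] [FiniteDimensional (ZMod 2) V]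

theorem equivFun_basis {ι : Type*} [Fintype ι] [DecidableEq ι] (b : Basis ι (ZMod 2) V) (i : ι) :
    b.equivFun (b i) = Pi.single i 1 := by
  ext j
  rw [Basis.equivFun_self, Pi.single_apply]
  simp only [eq_comm]

theorem exists_type {m : ℕ} (hm : 1 ≤ m) (hV : finrank (ZMod 2) V = 2 * m) (Q : QuadraticForm (ZMod 2) V)
    (hQ : NondegQ Q) :
    (∃ g : V ≃ₗ[ZMod 2] Vp m, ∀ v, Q v = Cfsg.quadFormPlus m (ZMod 2) (g v)) ∨
    (∃ g : V ≃ₗ[ZMod 2] Vm (m - 1), ∀ v, Q v = Cfsg.quadFormMinus (m - 1) (ZMod 2) 1 1 (g v)) := by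
  classical
  rcases exists_even_basis hm hV Q hQ with ⟨b, h1, h2, h3⟩ | ⟨b, ζ, hζ, h1, h2, h3, h4, hx, hxy, hy⟩
  · left
    refine ⟨b.equivFun, fun v => ?_⟩
    have key := quad_eq_of_basis b Q ((plusQF m (ZMod 2)).comp (b.equivFun : V →ₗ[ZMod 2] Vp m)) ?_ ?_
    · rw [key]
      simp [plusQF_apply]
    · rintro (i | i)
      · rw [(h1 i).1]
        simp only [QuadraticMap.comp_apply, LinearEquiv.coe_coe, plusQF_apply, equivFun_basis, Cfsg.quadFormPlus]
        simp
      · rw [(h1 i).2]
        simp only [QuadraticMap.comp_apply, LinearEquiv.coe_coe, plusQF_apply, equivFun_basis, Cfsg.quadFormPlus]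
        simp
    · have hval : ∀ x y, QuadraticMap.polar ((plusQF m (ZMod 2)).comp (b.equivFun : V →ₗ[ZMod 2] Vp m)) x y =
          pf m (b.equivFun x) (b.equivFun y) := by
        intro x y
        simp only [QuadraticMap.polar, QuadraticMap.comp_apply, LinearEquiv.coe_coe, plusQF_apply, map_add, pf]
      intro i j
      rw [hval, equivFun_basis, equivFun_basis, pf_eq]
      rcases i with i | i <;> rcases j with j | j
      · rw [(h3 i j).1]; simp
      · rw [h2 i j]; simp [Pi.single_apply]; simp only [eq_comm]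
      · rw [QuadraticMap.polar_comm, h2 j i]; simp [Pi.single_apply]; simp only [eq_comm]
      · rw [(h3 i j).2]; simp
  · right
    have hζ1 : ζ = 1 := by
      have := hζ 0
      simp only [ne_eq, OfNat.ofNat_ne_zero, not_false_eq_true, zero_pow, add_zero, zero_add] at this
      revert this
      generalize ζ = a
      revert a
      decide
    subst hζ1
    refine ⟨b.equivFun, fun v => ?_⟩
    have key := quad_eq_of_basis b Q ((minusQF (m - 1)).comp (b.equivFun : V →ₗ[ZMod 2] Vm (m - 1))) ?_ ?_
    · rw [key]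
      simp
    · rintro ((i | i) | i)
      · rw [(h1 i).1]
        simp only [QuadraticMap.comp_apply, LinearEquiv.coe_coe, minusQF_apply, equivFun_basis, Cfsg.quadFormMinus]
        simp
      · rw [(h1 i).2]
        simp only [QuadraticMap.comp_apply, LinearEquiv.coe_coe, minusQF_apply, equivFun_basis, Cfsg.quadFormMinus]
        simp
      · simp only [QuadraticMap.comp_apply, LinearEquiv.coe_coe, minusQF_apply, equivFun_basis, Cfsg.quadFormMinus]
        fin_cases i
        · simp [hx]
        · simp [hy]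
    · have hval : ∀ x y, QuadraticMap.polar ((minusQF (m - 1)).comp (b.equivFun : V →ₗ[ZMod 2] Vm (m - 1))) x y =
          QuadraticMap.polar (Cfsg.quadFormMinus (m - 1) (ZMod 2) 1 1) (b.equivFun x) (b.equivFun y) := by
        intro x y
        simp only [QuadraticMap.polar, QuadraticMap.comp_apply, LinearEquiv.coe_coe, minusQF_apply, map_add]
      have hself : QuadraticMap.polar ⇑Q (b (Sum.inr 0)) (b (Sum.inr 0)) = 0 ∧
          QuadraticMap.polar ⇑Q (b (Sum.inr 1)) (b (Sum.inr 1)) = 0 := by
        rw [polar_self_eq, polar_self_eq]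
        exact ⟨by rw [show (2 : ZMod 2) = 0 from rfl, zero_mul], by rw [show (2 : ZMod 2) = 0 from rfl, zero_mul]⟩
      intro i j
      rw [hval, equivFun_basis, equivFun_basis, polar_minus_eq]
      rcases i with (i | i) | i <;> rcases j with (j | j) | j
      · rw [(h3 i j).1]; simp
      · rw [h2 i j]; simp [Pi.single_apply]; simp only [eq_comm]
      · rw [(h4 i j).1]; simp
      · rw [QuadraticMap.polar_comm, h2 j i]; simp [Pi.single_apply]; simp only [eq_comm]
      · rw [(h3 i j).2]; simp
      · rw [(h4 i j).2]; simp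
      · rw [QuadraticMap.polar_comm, (h4 j i).1]; simp
      · rw [QuadraticMap.polar_comm, (h4 j i).2]; simp
      · fin_cases i <;> fin_cases j
        · simp [hself.1]
        · simp [hxy]
        · simp [QuadraticMap.polar_comm ⇑Q (b (Sum.inr 1)) (b (Sum.inr 0)), hxy]
        · simp [hself.2]

end

end Cfsg.Agent.Lib.Arf
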