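import Mathlib
import Cfsg.Agent.Lib.Arf.Types
import Cfsg.Agent.Lib.Classical.PermModel2

/-! The form "half the weight" on even vectors modulo the all-one vector, in degree divisible by four. -/

set_option autoImplicit false
set_option linter.unusedSectionVars false
set_option linter.unusedSimpArgs false

namespace Cfsg.Agent.Lib.Arf

open Cfsg.Agent.Lib.Quad Cfsg.Agent.Lib.Classical Module

section

variable {Ω : Type} [Fintype Ω] [DecidableEq Ω]

/-- The weight of a vector. -/
def wt (x : Ω → ZMod 2) : ℕ := ∑ i, (x i).val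

theorem val_eq_ite (a : ZMod 2) : a.val = if a ≠ 0 then 1 else 0 := by revert a; decide

theorem wt_eq_card (x : Ω → ZMod 2) : wt x = (Finset.univ.filter (fun i => x i ≠ 0)).card := by
  rw [wt, Finset.card_filter]
  exact Finset.sum_congr rfl fun i _ => val_eq_ite _

theorem halfWt_eq (x : Ω → ZMod 2) : halfWt x = ((wt x / 2 : ℕ) : ZMod 2) := by
  rw [halfWt, wt_eq_card]

theorem wt_cast (x : Ω → ZMod 2) : (wt x : ZMod 2) = ∑ i, x i := by
  rw [wt, Nat.cast_sum]
  exact Finset.sum_congr rfl fun i _ => ZMod.natCast_zmod_val _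

theorem even_wt_of_sum {x : Ω → ZMod 2} (h : ∑ i, x i = 0) : Even (wt x) := by
  rw [← wt_cast] at h
  exact (ZMod.natCast_eq_zero_iff_even).1 h

/-- The overlap of two vectors. -/
def ov (x y : Ω → ZMod 2) : ℕ := ∑ i, (x i).val * (y i).val

theorem wt_add (x y : Ω → ZMod 2) : wt (x + y) + 2 * ov x y = wt x + wt y := by
  have h0 : ∀ a b : ZMod 2, (a + b).val + 2 * (a.val * b.val) = a.val + b.val := by decide
  simp only [wt, ov, Finset.mul_sum, ← Finset.sum_add_distrib, Pi.add_apply]
  exact Finset.sum_congr rfl fun i _ => h0 _ _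

theorem ov_cast (x y : Ω → ZMod 2) : (ov x y : ZMod 2) = ∑ i, x i * y i := by
  rw [ov, Nat.cast_sum]
  refine Finset.sum_congr rfl fun i _ => ?_
  rw [Nat.cast_mul, ZMod.natCast_zmod_val, ZMod.natCast_zmod_val]

theorem halfWt_add {x y : Ω → ZMod 2} (hx : ∑ i, x i = 0) (hy : ∑ i, y i = 0) :
    halfWt (x + y) = halfWt x + halfWt y + ∑ i, x i * y i := by
  obtain ⟨a, ha⟩ := even_wt_of_sum hx
  obtain ⟨b, hb⟩ := even_wt_of_sum hy
  have h1 := wt_add x y
  have hxy : ∑ i, (x + y) i = 0 := by simp [Finset.sum_add_distrib, hx, hy]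
  obtain ⟨c, hc⟩ := even_wt_of_sum hxy
  rw [halfWt_eq, halfWt_eq, halfWt_eq, ha, hb, hc, ← ov_cast]
  have e1 : (c + c) / 2 = c := by omega
  have e2 : (a + a) / 2 = a := by omega
  have e3 : (b + b) / 2 = b := by omega
  rw [e1, e2, e3]
  have h2 : c + ov x y = a + b := by omega
  have h3 := congrArg (fun t : ℕ => (t : ZMod 2)) h2
  simp only [Nat.cast_add] at h3
  have h4 : (2 : ZMod 2) = 0 := rfl
  rw [← h3]
  linear_combination (-(ov x y : ZMod 2)) * h4

/-- The even vectors vanishing at a point. -/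
def WW (o : Ω) : Submodule (ZMod 2) (Ω → ZMod 2) where
  carrier := {x | x o = 0 ∧ ∑ i, x i = 0}
  add_mem' {a b} ha hb := ⟨by simp [ha.1, hb.1], by simp [Finset.sum_add_distrib, ha.2, hb.2]⟩
  zero_mem' := by simp
  smul_mem' c x hx := ⟨by simp [hx.1], by simp [← Finset.mul_sum, hx.2]⟩

theorem mem_WW {o : Ω} {x : Ω → ZMod 2} : x ∈ WW o ↔ x o = 0 ∧ ∑ i, x i = 0 := Iff.rfl

/-- The dot product on `WW o`. -/
def dotW (o : Ω) : LinearMap.BilinForm (ZMod 2) (WW o) :=
  LinearMap.mk₂ (ZMod 2) (fun x y => ∑ i, (x : Ω → ZMod 2) i * (y : Ω → ZMod 2) i)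
    (fun a b c => by simp [add_mul, Finset.sum_add_distrib])
    (fun c a b => by simp [Finset.mul_sum, mul_assoc])
    (fun a b c => by simp [mul_add, Finset.sum_add_distrib])
    (fun c a b => by simp [Finset.mul_sum, mul_left_comm])

/-- The form on `WW o`. -/
noncomputable def qW (o : Ω) : QuadraticForm (ZMod 2) (WW o) :=
  mkQF (fun x => halfWt (x : Ω → ZMod 2)) (dotW o) (fun u v => halfWt_add u.2.2 v.2.2)

@[simp] theorem qW_apply (o : Ω) (x : WW o) : qW o x = halfWt (x : Ω → ZMod 2) := rfl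

theorem polar_qW (o : Ω) (x y : WW o) :
    QuadraticMap.polar (qW o) x y = ∑ i, (x : Ω → ZMod 2) i * (y : Ω → ZMod 2) i := by
  simp only [QuadraticMap.polar, qW_apply]
  have := halfWt_add x.2.2 y.2.2
  rw [Submodule.coe_add, this]
  ring

/-- Non-degeneracy for at least four points of an even set. -/
theorem qW_nondeg (o : Ω) (hodd : Odd (Fintype.card Ω - 1)) (hc : 1 ≤ Fintype.card Ω) : NondegQ (qW o) := by
  classical
  rintro ⟨x, hxo, hxs⟩ h
  have hconst : ∀ i j, i ≠ o → j ≠ o → x i = x j := by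
    intro i j hi hj
    by_cases hij : i = j
    · rw [hij]
    have hmem : (Pi.single i 1 + Pi.single j 1 : Ω → ZMod 2) ∈ WW o := by
      constructor
      · simp [Pi.single_apply, hi.symm, hj.symm]
      · simp [Finset.sum_add_distrib]
        rfl
    have h1 := h ⟨_, hmem⟩
    rw [polar_qW] at h1
    simp only [Pi.add_apply, mul_add, Finset.sum_add_distrib] at h1
    simp only [mul_ite, mul_one, mul_zero, Pi.single_apply, Finset.sum_ite_eq', Finset.mem_univ, if_true] at h1
    have h2 : ∀ a b : ZMod 2, a + b = 0 → a = b := by decide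
    exact h2 _ _ h1
  apply Subtype.ext
  funext i
  by_cases hi : i = o
  · rw [hi]
    exact hxo
  -- the constant value
  have hsum : ∑ t, x t = ((Fintype.card Ω - 1 : ℕ) : ZMod 2) * x i := by
    have h1 : ∑ t, x t = ∑ t ∈ Finset.univ.erase o, x t := by
      rw [← Finset.add_sum_erase Finset.univ x (Finset.mem_univ o), hxo, zero_add]
    rw [h1, Finset.sum_congr rfl (g := fun _ => x i) (fun t ht => hconst t i (Finset.ne_of_mem_erase ht) hi),
      Finset.sum_const, Finset.card_erase_of_mem (Finset.mem_univ o), Finset.card_univ, nsmul_eq_mul]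
  have hodd' : ((Fintype.card Ω - 1 : ℕ) : ZMod 2) = 1 := ZMod.natCast_eq_one_iff_odd.2 hodd
  rw [hodd', one_mul, hxs] at hsum
  exact hsum.symm

theorem finrank_WW {o p : Ω} (hp : p ≠ o) : finrank (ZMod 2) (WW o) + 2 = Fintype.card Ω := by
  classical
  let L : (Ω → ZMod 2) →ₗ[ZMod 2] (Fin 2 → ZMod 2) :=
    { toFun := fun x => ![x o, ∑ i, x i]
      map_add' := fun a b => by
        ext i
        fin_cases i
        · simp
        · simp [Finset.sum_add_distrib]
      map_smul' := fun c a => by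
        ext i
        fin_cases i
        · simp
        · simp [Finset.mul_sum] }
  have hker : LinearMap.ker L = WW o := by
    ext x
    rw [LinearMap.mem_ker, mem_WW]
    constructor
    · intro h
      exact ⟨congrFun h 0, congrFun h 1⟩
    · rintro ⟨h1, h2⟩
      ext i
      fin_cases i
      · exact h1
      · exact h2
  have hsurj : Function.Surjective L := by
    intro v
    refine ⟨v 0 • Pi.single o 1 + (v 0 + v 1) • Pi.single p 1, ?_⟩
    have h2 : (2 : ZMod 2) = 0 := rfl
    ext i
    fin_cases i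
    · simp [L, Pi.single_apply, hp.symm]
    · simp [L, Finset.sum_add_distrib, Finset.mul_sum, Pi.single_apply]
      linear_combination (v 0) * h2
  have h1 := LinearMap.finrank_range_add_finrank_ker L
  rw [LinearMap.range_eq_top.2 hsurj, finrank_top, hker, Module.finrank_fintype_fun_eq_card,
    Module.finrank_fintype_fun_eq_card] at h1
  simp at h1
  omega

/-- The square root of `-1` in the Gaussian integers. -/
def zi : GaussianInt := ⟨0, 1⟩

theorem zi_sq : zi * zi = -1 := by decide

theorem chi_half_step (t : ℕ) : chi (((t + 2) / 2 : ℕ) : ZMod 2) = - chi ((t / 2 : ℕ) : ZMod 2) := by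
  have e : (t + 2) / 2 = t / 2 + 1 := by omega
  rw [e, Nat.cast_add, chi_add]
  simp

theorem zi_pow_re (t : ℕ) : (zi ^ t).re = if Even t then chi ((t / 2 : ℕ) : ZMod 2) else 0 := by
  induction t using Nat.twoStepInduction with
  | zero => rfl
  | one => rfl
  | more t ih _ =>
    have h1 : zi ^ (t + 2) = - zi ^ t := by
      rw [pow_add, sq, zi_sq]; ring
    have h2 : Even (t + 2) ↔ Even t := by
      simp [Nat.even_add]
    rw [h1, Zsqrtd.re_neg, ih, chi_half_step]
    simp only [h2]
    split_ifs <;> simp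

/-- The real part, as an additive map. -/
def reAdd : GaussianInt →+ ℤ := AddMonoidHom.mk' Zsqrtd.re (fun a b => Zsqrtd.re_add a b)

@[simp] theorem reAdd_apply (a : GaussianInt) : reAdd a = a.re := rfl

theorem sum_val_pow : ∑ a : ZMod 2, zi ^ a.val = 1 + zi := by decide

theorem gaussSum_qW (o : Ω) [Fintype (WW o)] :
    gaussSum (fun x : WW o => halfWt (x : Ω → ZMod 2)) = ((1 + zi) ^ (Fintype.card Ω - 1)).re := by
  classical
  -- the product formula
  let g : Ω → ZMod 2 → GaussianInt := fun j a => if j = o then (if a = 0 then 1 else 0) else zi ^ a.val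
  have h1 := Finset.prod_univ_sum (t := fun _ : Ω => (Finset.univ : Finset (ZMod 2))) (f := g)
  rw [Fintype.piFinset_univ] at h1
  have h2 : ∏ j, ∑ a : ZMod 2, g j a = (1 + zi) ^ (Fintype.card Ω - 1) := by
    rw [← Finset.mul_prod_erase Finset.univ _ (Finset.mem_univ o)]
    have h3 : ∑ a : ZMod 2, g o a = 1 := by
      simp [g]
    have h4 : ∀ j ∈ Finset.univ.erase o, ∑ a : ZMod 2, g j a = 1 + zi := by
      intro j hj
      have : j ≠ o := Finset.ne_of_mem_erase hj
      simp only [g, this, if_false]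
      exact sum_val_pow
    rw [h3, one_mul, Finset.prod_congr rfl h4, Finset.prod_const, Finset.card_erase_of_mem (Finset.mem_univ o),
      Finset.card_univ]
  rw [← h2, h1]
  have h5 : ∀ x : Ω → ZMod 2, ∏ j, g j (x j) = if x o = 0 then zi ^ wt x else 0 := by
    intro x
    split_ifs with hx
    · rw [wt, ← Finset.prod_pow_eq_pow_sum]
      refine Finset.prod_congr rfl fun j _ => ?_
      by_cases hj : j = o
      · subst hj
        simp [g, hx]
      · simp [g, hj]
    · apply Finset.prod_eq_zero (Finset.mem_univ o)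
      simp [g, hx]
  have h6 : ∀ x : Ω → ZMod 2, (∏ j, g j (x j)).re = if x ∈ WW o then chi (halfWt x) else 0 := by
    intro x
    rw [h5]
    by_cases hx : x o = 0
    · rw [if_pos hx, zi_pow_re, halfWt_eq]
      by_cases hw : Even (wt x)
      · have hs : ∑ i, x i = 0 := by
          rw [← wt_cast]
          exact ZMod.natCast_eq_zero_iff_even.2 hw
        rw [if_pos hw, if_pos ⟨hx, hs⟩]
      · have hs : ¬ ∑ i, x i = 0 := fun h => hw (even_wt_of_sum h)
        rw [if_neg hw, if_neg (fun h => hs h.2)]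
    · rw [if_neg hx, if_neg (fun h => hx h.1)]
      rfl
  rw [← reAdd_apply, map_sum]
  simp only [reAdd_apply, h6]
  rw [gaussSum]
  rw [← Finset.sum_filter]
  rw [Finset.sum_subtype (Finset.univ.filter fun x => x ∈ WW o) (p := fun x => x ∈ WW o) (by simp)]

theorem one_add_zi_pow_four : (1 + zi) ^ 4 = -4 := by decide

theorem one_add_zi_pow (k : ℕ) : ((1 + zi) ^ (4 * k + 3)).re = (-4) ^ k * (-2) := by
  induction k with
  | zero => decide
  | succ k ih =>
    have e : 4 * (k + 1) + 3 = (4 * k + 3) + 4 := by ring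
    rw [e, pow_add, one_add_zi_pow_four]
    have h1 : ∀ w : GaussianInt, (w * (-4)).re = w.re * (-4) := by
      intro w
      simp [Zsqrtd.re_mul]
    rw [h1, ih]
    ring

/-- The Gauss sum in degree `4k + 4`. -/
theorem gaussSum_qW_value (o : Ω) [Fintype (WW o)] {k : ℕ} (hc : Fintype.card Ω = 4 * k + 4) :
    gaussSum (fun x : WW o => qW o x) = (-1) ^ (k + 1) * 2 ^ (2 * k + 1) := by
  have h := gaussSum_qW o
  have e : Fintype.card Ω - 1 = 4 * k + 3 := by omega
  rw [e, one_add_zi_pow] at h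
  refine h.trans ?_
  rw [show (-4 : ℤ) = (-1) * 4 by norm_num, mul_pow, show (4 : ℤ) = 2 ^ 2 by norm_num, ← pow_mul]
  ring

/-- The action on the model. -/
theorem exists_embed_of_type {o p : Ω} (hp : p ≠ o) (h4 : 4 ∣ Fintype.card Ω) (h5 : 5 ≤ Fintype.card Ω)
    {ι : Type} [Fintype ι] [DecidableEq ι] (g : WW o ≃ₗ[ZMod 2] (ι → ZMod 2)) (Q : (ι → ZMod 2) → ZMod 2)
    (hg : ∀ w, qW o w = Q (g w)) :
    ∃ φ : Equiv.Perm Ω →* ↥(Cfsg.isometryGroup (ZMod 2) Q), Function.Injective φ := by
  classical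
  have hn : ((Fintype.card Ω : ℕ) : ZMod 2) = 0 := by
    rw [ZMod.natCast_eq_zero_iff]
    exact dvd_trans (by norm_num) h4
  have hone : (∑ _i : Ω, (1 : ZMod 2)) = 0 := by
    simpa using hn
  have h2 : (2 : ZMod 2) = 0 := rfl
  have hsingle : ∀ c : ZMod 2, ∑ i, ((Pi.single p c : Ω → ZMod 2) i) = c := by
    intro c
    simp
  have hsum : ∀ x : Ω → ZMod 2, ∑ i, ((x + x o • (fun _ => 1) + (∑ j, x j) • Pi.single p 1 : Ω → ZMod 2) i) = 0 := by
    intro x
    have e1 : ∑ i, ((x + x o • (fun _ => 1) + (∑ j, x j) • Pi.single p 1 : Ω → ZMod 2) i) =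
        (∑ i, x i) + x o * (∑ _i : Ω, (1 : ZMod 2)) + (∑ j, x j) * ∑ i, ((Pi.single p 1 : Ω → ZMod 2) i) := by
      simp only [Pi.add_apply, Pi.smul_apply, smul_eq_mul, Finset.sum_add_distrib, ← Finset.mul_sum]
    rw [e1, hone, hsingle]
    linear_combination (∑ j, x j) * h2
  have hat : ∀ x : Ω → ZMod 2, ((x + x o • (fun _ => 1) + (∑ j, x j) • Pi.single p 1 : Ω → ZMod 2) o) = 0 := by
    intro x
    simp [Pi.single_apply, hp.symm]
    exact CharTwo.add_self_eq_zero _
  -- the projection
  let πW : (Ω → ZMod 2) →ₗ[ZMod 2] WW o :=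
    { toFun := fun x => ⟨x + x o • (fun _ => 1) + (∑ i, x i) • Pi.single p 1, hat x, hsum x⟩
      map_add' := fun a b => by
        apply Subtype.ext
        simp [Finset.sum_add_distrib, add_smul]
        abel
      map_smul' := fun c a => by
        apply Subtype.ext
        have e : ∑ x, c * a x = c * ∑ i, a i := (Finset.mul_sum _ _ _).symm
        simp [e, mul_smul, smul_add] }
  have hπW : ∀ x, ((πW x : WW o) : Ω → ZMod 2) = x + x o • (fun _ => 1) + (∑ i, x i) • Pi.single p 1 := fun x => rfl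
  have hπW1 : ∀ w : WW o, πW (w : Ω → ZMod 2) = w := by
    intro w
    apply Subtype.ext
    rw [hπW, w.2.1, w.2.2]
    simp
  let ψ : (ι → ZMod 2) →ₗ[ZMod 2] (Ω → ZMod 2) := (WW o).subtype ∘ₗ (g.symm : (ι → ZMod 2) →ₗ[ZMod 2] WW o)
  let π : (Ω → ZMod 2) →ₗ[ZMod 2] (ι → ZMod 2) := (g : WW o →ₗ[ZMod 2] (ι → ZMod 2)) ∘ₗ πW
  have hψ : ∀ v, ψ v = ((g.symm v : WW o) : Ω → ZMod 2) := fun v => rfl
  have hπ : ∀ x, π x = g (πW x) := fun x => rfl
  have H : PM ψ π :=
    { left := fun v => by
        rw [hψ, hπ, hπW1, LinearEquiv.apply_symm_apply]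
      mem := fun v => (g.symm v).2.2
      adj := fun x hx => by
        refine ⟨x o, ?_, ?_⟩
        · rw [hψ, hπ, LinearEquiv.symm_apply_apply, hπW, hx, zero_smul, add_zero]
        · rw [hπ]
          have : πW (x o • fun _ => 1) = 0 := by
            apply Subtype.ext
            rw [hπW]
            simp only [Pi.smul_apply, smul_eq_mul, mul_one, ZeroMemClass.coe_zero]
            rw [show (∑ _i : Ω, x o) = x o * ∑ _i : Ω, (1 : ZMod 2) by rw [Finset.mul_sum]; simp, hone]
            simp only [mul_zero, zero_smul, add_zero]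
            funext i
            show x o • (1 : ZMod 2) + x o • (1 : ZMod 2) = 0
            exact CharTwo.add_self_eq_zero _
          rw [this, map_zero] }
  have hhalf : ∀ x : Ω → ZMod 2, ∑ i, x i = 0 → halfWt (x + x o • (fun _ => 1)) = halfWt x := by
    intro x hx
    have hox : ∀ c : ZMod 2, ∑ _i : Ω, (c • (fun _ : Ω => (1 : ZMod 2))) _i = 0 := by
      intro c
      simp only [Pi.smul_apply, smul_eq_mul, mul_one, Finset.sum_const, Finset.card_univ, nsmul_eq_mul]
      rw [hn, zero_mul]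
    have ha := halfWt_add (y := x o • (fun _ => (1 : ZMod 2))) hx (hox _)
    rw [ha]
    have hb : halfWt (x o • (fun _ : Ω => (1 : ZMod 2))) = 0 := by
      rw [halfWt_eq]
      have ha : ∀ c : ZMod 2, c = 0 ∨ c = 1 := by decide
      rcases ha (x o) with hc | hc
      · rw [hc, zero_smul]
        simp [wt]
      · rw [hc, one_smul]
        have : wt (fun _ : Ω => (1 : ZMod 2)) = Fintype.card Ω := by
          simp [wt, ZMod.val_one]
        rw [this]
        obtain ⟨c, hc⟩ := h4
        rw [hc, ZMod.natCast_eq_zero_iff]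
        omega
    have hc : ∑ i, x i * (x o • fun _ : Ω => (1 : ZMod 2)) i = 0 := by
      simp only [Pi.smul_apply, smul_eq_mul, mul_one]
      rw [← Finset.sum_mul, hx, zero_mul]
    rw [hb, hc]
    ring
  have hmem := H.hom_mem_isometry Q halfWt halfWt_perm
    (fun v => by
      rw [hψ, ← qW_apply, hg, LinearEquiv.apply_symm_apply])
    (fun x hx => by
      rw [hπ, ← hg, qW_apply, hπW, hx, zero_smul, add_zero]
      exact hhalf x hx)
  refine ⟨H.hom.codRestrict _ hmem, ?_⟩
  intro σ τ hστ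
  exact H.hom_injective h5 (congrArg Subtype.val hστ)

end

end Cfsg.Agent.Lib.Arf
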